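import Mathlib.GroupTheory.GroupAction.Quotient
import Mathlib.GroupTheory.Index
import Mathlib.Tactic

/-!
# Klein's count

A finite group `G` acting on a finite set `Ω`, with a normal subgroup `Z` acting trivially, such
that every element outside `Z` fixes exactly two points, every point is fixed by an element outside
`Z` and every orbit has at least three points: then `[G : Z]` is `12`, `24` or `60`.
-/

set_option autoImplicit false

namespace Cfsg.Agent.H600.KleinCount

/-- The arithmetic of the orbit lengths, sorted case. -/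
theorem arith_sorted {g n0 n1 n2 e0 e1 e2 : ℕ} (h0 : e0 * n0 = g) (h1 : e1 * n1 = g)
    (h2 : e2 * n2 = g) (he0 : 2 ≤ e0) (h01 : e0 ≤ e1) (h12 : e1 ≤ e2)
    (hn0 : 3 ≤ n0) (hn1 : 3 ≤ n1) (hn2 : 3 ≤ n2) (hsum : n0 + n1 + n2 = g + 2) :
    g = 12 ∨ g = 24 ∨ g = 60 := by
  have he0' : e0 = 2 := by
    by_contra hne
    have h3 : 3 ≤ e0 := by omega
    have a0 : 3 * n0 ≤ g := by rw [← h0]; exact Nat.mul_le_mul_right _ h3
    have a1 : 3 * n1 ≤ g := by rw [← h1]; exact Nat.mul_le_mul_right _ (by omega)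
    have a2 : 3 * n2 ≤ g := by rw [← h2]; exact Nat.mul_le_mul_right _ (by omega)
    omega
  subst he0'
  have he1 : e1 = 3 := by
    by_contra hne
    rcases (show e1 = 2 ∨ 4 ≤ e1 by omega) with h | h
    · subst h
      omega
    · have a1 : 4 * n1 ≤ g := by rw [← h1]; exact Nat.mul_le_mul_right _ h
      have a2 : 4 * n2 ≤ g := by rw [← h2]; exact Nat.mul_le_mul_right _ (by omega)
      omega
  subst he1
  have he2 : e2 < 6 := by
    by_contra hne
    have a2 : 6 * n2 ≤ g := by rw [← h2]; exact Nat.mul_le_mul_right _ (by omega)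
    omega
  interval_cases e2 <;> omega

/-- The arithmetic of the orbit lengths. -/
theorem arith {g n0 n1 n2 e0 e1 e2 : ℕ} (h0 : e0 * n0 = g) (h1 : e1 * n1 = g)
    (h2 : e2 * n2 = g) (he0 : 2 ≤ e0) (he1 : 2 ≤ e1) (he2 : 2 ≤ e2)
    (hn0 : 3 ≤ n0) (hn1 : 3 ≤ n1) (hn2 : 3 ≤ n2) (hsum : n0 + n1 + n2 = g + 2) :
    g = 12 ∨ g = 24 ∨ g = 60 := by
  rcases le_total e0 e1 with a | a <;> rcases le_total e1 e2 with b | b <;>
    rcases le_total e0 e2 with c | c
  · exact arith_sorted h0 h1 h2 he0 a b hn0 hn1 hn2 hsum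
  · exact arith_sorted h0 h1 h2 he0 a b hn0 hn1 hn2 hsum
  · exact arith_sorted h0 h2 h1 he0 c b hn0 hn2 hn1 (by omega)
  · exact arith_sorted h2 h0 h1 he2 c a hn2 hn0 hn1 (by omega)
  · exact arith_sorted h1 h0 h2 he1 a c hn1 hn0 hn2 (by omega)
  · exact arith_sorted h1 h2 h0 he1 b c hn1 hn2 hn0 (by omega)
  · exact arith_sorted h2 h1 h0 he2 b a hn2 hn1 hn0 (by omega)
  · exact arith_sorted h2 h1 h0 he2 b a hn2 hn1 hn0 (by omega)

/-- **Klein's count.** -/
theorem klein_count {G Ω : Type*} [Group G] [Finite G] [MulAction G Ω] [Finite Ω]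
    (Z : Subgroup G) (hZ : ∀ z ∈ Z, ∀ ω : Ω, z • ω = ω)
    (hfix : ∀ x ∉ Z, Nat.card {ω : Ω // x • ω = ω} = 2) (hne : ∃ x, x ∉ Z)
    (hpole : ∀ ω : Ω, ∃ x ∉ Z, x • ω = ω)
    (h3 : ∀ ω : Ω, 3 ≤ (MulAction.stabilizer G ω).index) :
    Z.index = 12 ∨ Z.index = 24 ∨ Z.index = 60 := by
  classical
  have hG := Fintype.ofFinite G
  have hΩ := Fintype.ofFinite Ω
  set R := Quotient (MulAction.orbitRel G Ω) with hR
  have hRf : Finite R := Quotient.finite _
  have hRft := Fintype.ofFinite R
  -- orbit lengths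
  have hlen : ∀ ω : Ω, ∃ e : ℕ, 2 ≤ e ∧ e * (MulAction.stabilizer G ω).index = Z.index := by
    intro ω
    have hle : Z ≤ MulAction.stabilizer G ω := fun z hz => MulAction.mem_stabilizer_iff.2 (hZ z hz ω)
    refine ⟨Z.relIndex (MulAction.stabilizer G ω), ?_, Subgroup.relIndex_mul_index hle⟩
    have h1 : Z.relIndex (MulAction.stabilizer G ω) ≠ 0 := by
      rw [Subgroup.relIndex]
      exact Subgroup.index_ne_zero_of_finite
    have h2 : Z.relIndex (MulAction.stabilizer G ω) ≠ 1 := by
      intro h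
      rw [Subgroup.relIndex_eq_one] at h
      obtain ⟨x, hx, hxω⟩ := hpole ω
      exact hx (h (MulAction.mem_stabilizer_iff.2 hxω))
    omega
  have hcardΩ : Nat.card Ω = ∑ q : R, (MulAction.stabilizer G (q.out : Ω)).index := by
    rw [Nat.card_congr (MulAction.selfEquivSigmaOrbitsQuotientStabilizer G Ω), Nat.card_sigma]
    rfl
  have hburn : ∑ x : G, Nat.card (MulAction.fixedBy Ω x) = Nat.card R * Nat.card G := by
    have := MulAction.sum_card_fixedBy_eq_card_orbits_mul_card_group G Ω
    rw [Nat.card_eq_fintype_card, Nat.card_eq_fintype_card, ← this]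
    exact Finset.sum_congr rfl fun x _ => Nat.card_eq_fintype_card
  have hsum : ∑ x : G, Nat.card (MulAction.fixedBy Ω x) =
      Nat.card Z * Nat.card Ω + 2 * (Nat.card G - Nat.card Z) := by
    rw [← Finset.sum_filter_add_sum_filter_not Finset.univ (fun x => x ∈ Z)]
    have c1 : (Finset.univ.filter (fun x => x ∈ Z)).card = Nat.card Z := by
      rw [Nat.card_eq_fintype_card]
      exact (Fintype.card_subtype _).symm
    have c2 : (Finset.univ.filter (fun x => x ∉ Z)).card = Nat.card G - Nat.card Z := by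
      have := Finset.card_filter_add_card_filter_not (s := (Finset.univ : Finset G))
        (fun x => x ∈ Z)
      rw [c1, Finset.card_univ, ← Nat.card_eq_fintype_card] at this
      omega
    rw [Finset.sum_congr rfl (g := fun _ => Nat.card Ω), Finset.sum_const, c1, smul_eq_mul,
      Finset.sum_congr rfl (g := fun _ => 2), Finset.sum_const, c2, smul_eq_mul, mul_comm _ 2]
    · intro x hx
      exact hfix x (Finset.mem_filter.1 hx).2
    · intro x hx
      have : MulAction.fixedBy Ω x = Set.univ := by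
        ext ω
        simp only [MulAction.mem_fixedBy, Set.mem_univ, iff_true]
        exact hZ x (Finset.mem_filter.1 hx).2 ω
      rw [this]
      exact Nat.card_congr (Equiv.Set.univ Ω)
  set g := Z.index with hg
  have hGc : Nat.card Z * g = Nat.card G := Z.card_mul_index
  have hZpos : 0 < Nat.card Z := Nat.card_pos
  have hg2 : 2 ≤ g := by
    have h1 : g ≠ 0 := Subgroup.index_ne_zero_of_finite
    have h2 : g ≠ 1 := by
      intro h
      obtain ⟨x, hx⟩ := hne
      rw [hg, Subgroup.index_eq_one] at h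
      exact hx (by rw [h]; trivial)
    omega
  set r := Nat.card R with hr
  have key : Nat.card Ω + 2 * g = r * g + 2 := by
    have h1 : Nat.card Z * Nat.card Ω + 2 * (Nat.card G - Nat.card Z) = r * Nat.card G := by
      rw [← hsum, hburn]
    rw [← hGc] at h1
    have h2 : Nat.card Z ≤ Nat.card Z * g := Nat.le_mul_of_pos_right _ (by omega)
    have h3 : Nat.card Z * (Nat.card Ω + 2 * g) = Nat.card Z * (r * g + 2) := by
      zify at h1 ⊢
      rw [Nat.cast_sub h2] at h1
      push_cast at h1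
      linarith
    exact Nat.eq_of_mul_eq_mul_left hZpos h3
  have hrc : Fintype.card R = r := by rw [hr, Nat.card_eq_fintype_card]
  have hΩge : 3 * r ≤ Nat.card Ω := by
    rw [hcardΩ, ← hrc, ← Finset.card_univ, mul_comm, ← smul_eq_mul, ← Finset.sum_const]
    exact Finset.sum_le_sum fun q _ => h3 _
  have hΩle : 2 * Nat.card Ω ≤ r * g := by
    rw [hcardΩ, ← hrc, ← Finset.card_univ, ← smul_eq_mul (Finset.univ.card), ← Finset.sum_const,
      Finset.mul_sum]
    refine Finset.sum_le_sum fun q _ => ?_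
    obtain ⟨e, he, h⟩ := hlen (q.out : Ω)
    rw [← h]
    exact Nat.mul_le_mul_right _ he
  have hr3 : r = 3 := by
    rcases Nat.lt_or_ge r 4 with h4 | h4
    · interval_cases r
      · omega
      · omega
      · omega
      · rfl
    · exfalso
      have : 4 * g ≤ r * g := Nat.mul_le_mul_right _ h4
      have h5 : 2 * (r * g) + 4 = 2 * Nat.card Ω + 4 * g := by omega
      omega
  -- name the three orbits
  have e : R ≃ Fin 3 := (Fintype.equivFinOfCardEq (by rw [hrc, hr3]))
  have hsum3 : Nat.card Ω = ∑ i : Fin 3, (MulAction.stabilizer G ((e.symm i).out : Ω)).index := by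
    rw [hcardΩ]
    exact Fintype.sum_equiv e _ _ (fun q => by rw [Equiv.symm_apply_apply])
  rw [Fin.sum_univ_three] at hsum3
  obtain ⟨e0, he0, h0⟩ := hlen ((e.symm 0).out : Ω)
  obtain ⟨e1, he1, h1⟩ := hlen ((e.symm 1).out : Ω)
  obtain ⟨e2, he2, h2⟩ := hlen ((e.symm 2).out : Ω)
  refine arith h0 h1 h2 he0 he1 he2 (h3 _) (h3 _) (h3 _) ?_
  rw [← hsum3]
  rw [hr3] at key
  omega

end Cfsg.Agent.H600.KleinCount
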